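import Cfsg.Agent.Lib.NormalE4.Basic
import Cfsg.Agent.Lib.Transfer.MaxExp
import Cfsg.Agent.Lib.Core.Subnormal
import Mathlib

/-! For odd `p`, a `p`-group with an elementary abelian subgroup of order `p⁴` has a normal one. -/

set_option autoImplicit false

namespace Cfsg.Agent.Lib.NormalE4

open Cfsg Subgroup
open scoped commutatorElement

universe u

section setting

variable {G : Type*} [Group G] [Finite G] {p : ℕ} [hp : Fact p.Prime]

/-- The setting: a maximal normal elementary abelian subgroup of order `p³`, and a normal plane in it. -/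
structure Sett (p : ℕ) (A F : Subgroup G) : Prop where
  An : A.Normal
  Fn : F.Normal
  FA : F ≤ A
  comm : ∀ a ∈ A, ∀ b ∈ A, a * b = b * a
  pow : ∀ a ∈ A, a ^ p = 1
  cardA : Nat.card A = p ^ 3
  cardF : Nat.card F = p ^ 2
  om : ∀ x, x ∈ centralizer (A : Set G) → x ^ p = 1 → x ∈ A
  hG : IsPGroup p G

namespace Sett

variable {A F : Subgroup G} (S : Sett p A F)

include S

omit hp in
theorem card_eq : Nat.card A = Nat.card F * p := by
  rw [S.cardA, S.cardF, pow_succ]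

theorem comm_mem (g : G) {a : G} (ha : a ∈ A) : g * a * g⁻¹ * a⁻¹ ∈ F := by
  haveI := S.An
  haveI := S.Fn
  exact comm_mem_of_card S.hG F A S.card_eq S.FA g ha

theorem cent {c y : G} (hc : ∀ b ∈ F, c * b = b * c) (hy : y ∈ A) (hyF : y ∉ F) (hcy : c * y = y * c) :
    c ∈ centralizer (A : Set G) := by
  have h1 : F ⊔ zpowers y ≤ centralizer ({c} : Set G) := by
    apply sup_le
    · intro b hb
      rw [mem_centralizer_iff]
      rintro _ rfl
      exact hc b hb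
    · rw [zpowers_le, mem_centralizer_iff]
      rintro _ rfl
      exact hcy
  rw [mem_centralizer_iff]
  intro a ha
  have h2 := h1 (le_sup_zpowers F A S.card_eq S.FA hy hyF ha)
  exact (mem_centralizer_iff.mp h2 c rfl).symm

omit hp [Finite G] in
theorem F_ea : IsElementaryAbelian p F :=
  ⟨⟨⟨fun a b => Subtype.ext (S.comm a (S.FA a.2) b (S.FA b.2))⟩⟩, fun a ha => S.pow a (S.FA ha)⟩

theorem exists_delta (E : Subgroup G) (hE : E ≤ centralizer (F : Set G)) {a : G} (ha : a ∈ A) :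
    ∃ δ : ↥E →* ↥F, ∀ σ : ↥E, ((δ σ : ↥F) : G) = σ * a * (σ : G)⁻¹ * a⁻¹ := by
  refine ⟨MonoidHom.mk' (fun σ => ⟨σ * a * (σ : G)⁻¹ * a⁻¹, S.comm_mem _ ha⟩) ?_, fun σ => rfl⟩
  intro σ τ
  apply Subtype.ext
  show ((σ * τ : ↥E) : G) * a * ((σ * τ : ↥E) : G)⁻¹ * a⁻¹ =
    ((σ : G) * a * (σ : G)⁻¹ * a⁻¹) * ((τ : G) * a * (τ : G)⁻¹ * a⁻¹)
  have h1 := S.comm_mem (τ : G) ha
  have h2 := S.comm_mem (σ : G) ha
  have h3 : (σ : G) * ((τ : G) * a * (τ : G)⁻¹ * a⁻¹) = ((τ : G) * a * (τ : G)⁻¹ * a⁻¹) * σ :=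
    (mem_centralizer_iff.mp (hE σ.2) _ h1).symm
  have h4 := S.comm _ (S.FA h1) _ (S.FA h2)
  calc ((σ * τ : ↥E) : G) * a * ((σ * τ : ↥E) : G)⁻¹ * a⁻¹
      = ((σ : G) * ((τ : G) * a * (τ : G)⁻¹ * a⁻¹)) * (σ : G)⁻¹ * ((σ : G) * a * (σ : G)⁻¹ * a⁻¹) := by
        simp only [Subgroup.coe_mul]
        group
    _ = ((τ : G) * a * (τ : G)⁻¹ * a⁻¹) * ((σ : G) * a * (σ : G)⁻¹ * a⁻¹) := by
        rw [h3]
        group
    _ = _ := h4

theorem mem_F_of_central {E : Subgroup G} (hEp : ∀ x ∈ E, x ^ p = 1) (hEc : ∀ x ∈ E, ∀ y ∈ E, x * y = y * x)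
    (hEC : E ≤ centralizer (F : Set G)) (hlarge : ¬ E ≤ A) {y : G} (hy : y ∈ E) (hyA : y ∈ A) : y ∈ F := by
  by_contra hyF
  apply hlarge
  intro x hx
  exact S.om x (S.cent (fun b hb => (mem_centralizer_iff.mp (hEC hx) b hb).symm) hyA hyF (hEc x hx y hy)) (hEp x hx)

theorem card_ker_range {E : Subgroup G} (δ : ↥E →* ↥F) : Nat.card ↥E = Nat.card δ.ker * Nat.card δ.range := by
  have h1 := Subgroup.card_mul_index δ.ker
  rw [Subgroup.index_ker] at h1
  exact h1.symm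

/-- Every elementary abelian subgroup of order `p⁴` centralizes `F` and contains it. -/
theorem key (E : Subgroup G) (hE : IsElementaryAbelian p E) (hcard : Nat.card E = p ^ 4) :
    E ≤ centralizer (F : Set G) ∧ F ≤ E := by
  have hpp := hp.out
  have hEp := hE.2
  have hEc : ∀ x ∈ E, ∀ y ∈ E, x * y = y * x := fun x hx y hy => by
    have := hE.1.is_comm.comm ⟨x, hx⟩ ⟨y, hy⟩
    exact congrArg Subtype.val this
  haveI := S.An
  haveI := S.Fn
  have hp0 : 0 < p := hpp.pos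
  have hlt34 : p ^ 3 < p ^ 4 := Nat.pow_lt_pow_right hpp.one_lt (by norm_num)
  have hlt23 : p ^ 2 < p ^ 3 := Nat.pow_lt_pow_right hpp.one_lt (by norm_num)
  obtain ⟨a, ha, haF⟩ : ∃ a ∈ A, a ∉ F := by
    apply SetLike.not_le_iff_exists.mp
    intro h
    have := Subgroup.card_le_of_le h
    rw [S.cardA, S.cardF] at this
    omega
  have hlarge : ¬ E ≤ A := by
    intro h
    have := Subgroup.card_le_of_le h
    rw [S.cardA, hcard] at this
    omega
  have h1 := Cfsg.Agent.Lib.OddLocal.card_le_mul_card_inf_centralizer S.hG F S.F_ea S.cardF E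
  obtain ⟨δ, hδ⟩ := S.exists_delta (E ⊓ centralizer (F : Set G)) inf_le_right ha
  have hker : ∀ σ : ↥(E ⊓ centralizer (F : Set G)), δ σ = 1 → (σ : G) ∈ A := by
    intro σ hσ
    apply S.om _ _ (hEp _ σ.2.1)
    apply S.cent (fun b hb => (mem_centralizer_iff.mp σ.2.2 b hb).symm) ha haF
    have h2 := hδ σ
    rw [hσ] at h2
    have h3 : (σ : G) * a * (σ : G)⁻¹ * a⁻¹ = 1 := h2.symm
    have h4 := mul_inv_eq_one.mp h3
    exact mul_inv_eq_iff_eq_mul.mp h4
  have hcount := card_ker_range (S := S) δ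
  have hkerle : Nat.card δ.ker ≤ Nat.card ↥((E ⊓ centralizer (F : Set G)) ⊓ A) := by
    rw [← Subgroup.card_map_of_injective (K := δ.ker) (f := (E ⊓ centralizer (F : Set G)).subtype) (E ⊓ centralizer (F : Set G)).subtype_injective]
    apply Subgroup.card_le_of_le
    rintro _ ⟨σ, hσ, rfl⟩
    exact ⟨σ.2, hker σ hσ⟩
  have hrange : Nat.card δ.range ≤ p ^ 2 := by
    rw [← S.cardF]
    exact Subgroup.card_le_card_group _
  by_cases hcase : E ≤ centralizer (F : Set G)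
  · have hE₂ : E ⊓ centralizer (F : Set G) = E := inf_eq_left.mpr hcase
    have hcE₂ : Nat.card ↥(E ⊓ centralizer (F : Set G)) = p ^ 4 := by
      rw [hE₂]
      exact hcard
    have h3 : p ^ 2 ≤ Nat.card ↥((E ⊓ centralizer (F : Set G)) ⊓ A) := by
      rw [hcE₂] at hcount
      have h5 : p ^ 4 ≤ Nat.card ↥((E ⊓ centralizer (F : Set G)) ⊓ A) * p ^ 2 := by
        rw [hcount]
        exact Nat.mul_le_mul hkerle hrange
      have h6 : p ^ 4 = p ^ 2 * p ^ 2 := by ring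
      rw [h6] at h5
      exact Nat.le_of_mul_le_mul_right h5 (pow_pos hpp.pos 2)
    have h4 : (E ⊓ centralizer (F : Set G)) ⊓ A ≤ F := fun y hy =>
      S.mem_F_of_central hEp hEc hcase hlarge hy.1.1 hy.2
    have h5 : (E ⊓ centralizer (F : Set G)) ⊓ A = F := by
      apply Subgroup.eq_of_le_of_card_ge h4
      rw [S.cardF]
      exact h3
    refine ⟨hcase, ?_⟩
    rw [← h5]
    exact inf_le_left.trans inf_le_left
  · exfalso
    obtain ⟨d₀, hd₀, hd₀C⟩ := SetLike.not_le_iff_exists.mp hcase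
    have hcE₂ : p ^ 3 ≤ Nat.card ↥(E ⊓ centralizer (F : Set G)) := by
      rw [hcard, show p ^ 4 = p * p ^ 3 by ring] at h1
      exact Nat.le_of_mul_le_mul_left h1 hp0
    have hfix : ∀ r ∈ δ.range, d₀ * (r : G) = (r : G) * d₀ := by
      rintro _ ⟨σ, rfl⟩
      have h2 := hδ σ
      have hh := S.comm_mem d₀ ha
      have hσh : (σ : G) * (d₀ * a * d₀⁻¹ * a⁻¹) = (d₀ * a * d₀⁻¹ * a⁻¹) * σ :=
        (mem_centralizer_iff.mp σ.2.2 _ hh).symm
      have hrF : (δ σ : G) ∈ F := (δ σ).2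
      have hF2 := S.comm _ (S.FA hh) _ (S.FA hrF)
      have hcd : (σ : G) * d₀ = d₀ * σ := hEc _ σ.2.1 _ hd₀
      set h := d₀ * a * d₀⁻¹ * a⁻¹ with hh_def
      have e1 : d₀ * a * d₀⁻¹ = h * a := by rw [hh_def]; group
      have key1 : d₀ * (δ σ : G) * d₀⁻¹ = h * (δ σ : G) * h⁻¹ := by
        rw [h2]
        have e2 : d₀ * ((σ : G) * a * (σ : G)⁻¹ * a⁻¹) * d₀⁻¹ =
            (d₀ * σ) * a * (d₀ * σ)⁻¹ * (d₀ * a⁻¹ * d₀⁻¹) := by group
        rw [e2, ← hcd]
        have e3 : (σ : G) * d₀ * a * ((σ : G) * d₀)⁻¹ * (d₀ * a⁻¹ * d₀⁻¹) =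
            (σ : G) * (d₀ * a * d₀⁻¹) * (σ : G)⁻¹ * (d₀ * a * d₀⁻¹)⁻¹ := by group
        rw [e3, e1]
        have e4 : (σ : G) * (h * a) * (σ : G)⁻¹ * (h * a)⁻¹ = ((σ : G) * h) * a * (σ : G)⁻¹ * (a⁻¹ * h⁻¹) := by group
        rw [e4, hσh]
        group
      have key2 : h * (δ σ : G) * h⁻¹ = (δ σ : G) := by
        rw [hF2]
        group
      calc d₀ * (δ σ : G) = (d₀ * (δ σ : G) * d₀⁻¹) * d₀ := by group
        _ = (δ σ : G) * d₀ := by rw [key1, key2]
    have hne : δ.range ≠ ⊤ := by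
      intro h
      apply hd₀C
      rw [mem_centralizer_iff]
      intro b hb
      have h2 := hfix ⟨b, hb⟩ (by rw [h]; trivial)
      exact h2.symm
    have hrange2 : Nat.card δ.range ≤ p := by
      have h2 : Nat.card δ.range ∣ p ^ 2 := by
        rw [← S.cardF]
        exact Subgroup.card_subgroup_dvd_card _
      obtain ⟨j, hj, hj2⟩ := (Nat.dvd_prime_pow hpp).mp h2
      have hj3 : j ≤ 1 := by
        by_contra hh
        have hj4 : j = 2 := by omega
        apply hne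
        apply Subgroup.eq_top_of_card_eq
        rw [hj2, hj4, S.cardF]
      calc Nat.card δ.range = p ^ j := hj2
        _ ≤ p ^ 1 := Nat.pow_le_pow_right hp0 hj3
        _ = p := pow_one p
    have h3 : p ^ 2 ≤ Nat.card ↥((E ⊓ centralizer (F : Set G)) ⊓ A) := by
      have h5 : p ^ 3 ≤ Nat.card ↥((E ⊓ centralizer (F : Set G)) ⊓ A) * p := by
        calc p ^ 3 ≤ _ := hcE₂
          _ = _ := hcount
          _ ≤ _ := Nat.mul_le_mul hkerle hrange2
      rw [pow_succ] at h5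
      exact Nat.le_of_mul_le_mul_right h5 hp0
    have h4 : (E ⊓ centralizer (F : Set G)) ⊓ A ≤ F := by
      intro y hy
      by_contra hyF
      have hE₂A : E ⊓ centralizer (F : Set G) ≤ A := by
        intro x hx
        exact S.om x (S.cent (fun b hb => (mem_centralizer_iff.mp hx.2 b hb).symm) hy.2 hyF (hEc x hx.1 y hy.1.1)) (hEp x hx.1)
      have hE₂eq : E ⊓ centralizer (F : Set G) = A := by
        apply Subgroup.eq_of_le_of_card_ge hE₂A
        rw [S.cardA]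
        exact hcE₂
      apply hlarge
      intro x hx
      apply S.om x _ (hEp x hx)
      rw [mem_centralizer_iff]
      intro b hb
      rw [← hE₂eq] at hb
      exact hEc b hb.1 x hx
    have h5 : (E ⊓ centralizer (F : Set G)) ⊓ A = F := by
      apply Subgroup.eq_of_le_of_card_ge h4
      rw [S.cardF]
      exact h3
    apply hd₀C
    rw [mem_centralizer_iff]
    intro b hb
    rw [← h5] at hb
    exact hEc b hb.1.1 d₀ hd₀

/-- The commutator map is onto `F`. -/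
theorem surj (E : Subgroup G) (hE : IsElementaryAbelian p E) (hcard : Nat.card E = p ^ 4) {a : G} (ha : a ∈ A) (haF : a ∉ F) :
    ∀ x ∈ F, ∃ u ∈ E, u * a * u⁻¹ * a⁻¹ = x := by
  have hpp := hp.out
  have hEp := hE.2
  have hEc : ∀ x ∈ E, ∀ y ∈ E, x * y = y * x := fun x hx y hy => by
    have := hE.1.is_comm.comm ⟨x, hx⟩ ⟨y, hy⟩
    exact congrArg Subtype.val this
  obtain ⟨hEC, hFE⟩ := S.key E hE hcard
  have hlt34 : p ^ 3 < p ^ 4 := Nat.pow_lt_pow_right hpp.one_lt (by norm_num)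
  have hlarge : ¬ E ≤ A := by
    intro h
    have := Subgroup.card_le_of_le h
    rw [S.cardA, hcard] at this
    omega
  obtain ⟨δ, hδ⟩ := S.exists_delta E hEC ha
  have hker : ∀ σ : ↥E, δ σ = 1 → (σ : G) ∈ F := by
    intro σ hσ
    apply S.mem_F_of_central hEp hEc hEC hlarge σ.2
    apply S.om _ _ (hEp _ σ.2)
    apply S.cent (fun b hb => (mem_centralizer_iff.mp (hEC σ.2) b hb).symm) ha haF
    have h2 := hδ σ
    rw [hσ] at h2
    have h3 : (σ : G) * a * (σ : G)⁻¹ * a⁻¹ = 1 := h2.symm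
    have h4 := mul_inv_eq_one.mp h3
    exact mul_inv_eq_iff_eq_mul.mp h4
  have hcount := card_ker_range (S := S) δ
  have hkerle : Nat.card δ.ker ≤ p ^ 2 := by
    rw [← Subgroup.card_map_of_injective (K := δ.ker) (f := E.subtype) E.subtype_injective, ← S.cardF]
    apply Subgroup.card_le_of_le
    rintro _ ⟨σ, hσ, rfl⟩
    exact hker σ hσ
  have htop : δ.range = ⊤ := by
    apply Subgroup.eq_top_of_card_eq
    apply le_antisymm (Subgroup.card_le_card_group _)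
    rw [S.cardF]
    rw [hcard] at hcount
    have h5 : p ^ 2 * p ^ 2 ≤ p ^ 2 * Nat.card δ.range := by
      calc p ^ 2 * p ^ 2 = p ^ 4 := by ring
        _ = _ := hcount
        _ ≤ _ := Nat.mul_le_mul_right _ hkerle
    exact Nat.le_of_mul_le_mul_left h5 (pow_pos hpp.pos 2)
  intro x hx
  have h1 : (⟨x, hx⟩ : ↥F) ∈ δ.range := by
    rw [htop]
    trivial
  obtain ⟨u, hu⟩ := h1
  exact ⟨u, u.2, (hδ u).symm.trans (congrArg Subtype.val hu)⟩

/-- A partner in the other subgroup, modulo `A`. -/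
theorem partner (hodd : p ≠ 2) {E₀ E₁ : Subgroup G} (hE₀ : IsElementaryAbelian p E₀) (hE₁ : IsElementaryAbelian p E₁)
    (hc₀ : Nat.card E₀ = p ^ 4) (hc₁ : Nat.card E₁ = p ^ 4) (hcomm : ∀ u ∈ E₀, ∀ v ∈ E₁, ⁅v, u⁆ ∈ E₀ ⊓ E₁) {v : G} (hv : v ∈ E₀) :
    ∃ v' ∈ E₁, v⁻¹ * v' ∈ A := by
  have hpp := hp.out
  have hlt23 : p ^ 2 < p ^ 3 := Nat.pow_lt_pow_right hpp.one_lt (by norm_num)
  obtain ⟨a, ha, haF⟩ : ∃ a ∈ A, a ∉ F := by
    apply SetLike.not_le_iff_exists.mp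
    intro h
    have := Subgroup.card_le_of_le h
    rw [S.cardA, S.cardF] at this
    omega
  have hE₀c : ∀ x ∈ E₀, ∀ y ∈ E₀, x * y = y * x := fun x hx y hy => by
    have := hE₀.1.is_comm.comm ⟨x, hx⟩ ⟨y, hy⟩
    exact congrArg Subtype.val this
  have hE₁c : ∀ x ∈ E₁, ∀ y ∈ E₁, x * y = y * x := fun x hx y hy => by
    have := hE₁.1.is_comm.comm ⟨x, hx⟩ ⟨y, hy⟩
    exact congrArg Subtype.val this
  obtain ⟨hC₀, -⟩ := S.key E₀ hE₀ hc₀
  obtain ⟨hC₁, -⟩ := S.key E₁ hE₁ hc₁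
  obtain ⟨v', hv', e⟩ := S.surj E₁ hE₁ hc₁ ha haF (v * a * v⁻¹ * a⁻¹) (S.comm_mem v ha)
  refine ⟨v', hv', S.om _ ?_ ?_⟩
  · apply S.cent _ ha haF
    · have e2 : v' * a * v'⁻¹ = v * a * v⁻¹ := mul_right_cancel e
      have e3 : v' * a = v * a * v⁻¹ * v' := by
        rw [← e2]
        group
      calc v⁻¹ * v' * a = v⁻¹ * (v' * a) := by group
        _ = v⁻¹ * (v * a * v⁻¹ * v') := by rw [e3]
        _ = a * (v⁻¹ * v') := by group
    · intro b hb
      have h1 : v' * b = b * v' := (mem_centralizer_iff.mp (hC₁ hv') b hb).symm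
      have h2 : v⁻¹ * b = b * v⁻¹ := (mem_centralizer_iff.mp (inv_mem (hC₀ hv)) b hb).symm
      calc v⁻¹ * v' * b = v⁻¹ * (v' * b) := by group
        _ = v⁻¹ * (b * v') := by rw [h1]
        _ = (v⁻¹ * b) * v' := by group
        _ = (b * v⁻¹) * v' := by rw [h2]
        _ = b * (v⁻¹ * v') := by group
  · have hm := hcomm v⁻¹ (inv_mem hv) v' hv'
    apply Cfsg.Agent.Lib.OddLocal.mul_pow_eq_one_of_class_two hodd
    · rw [inv_pow, hE₀.2 v hv, inv_one]
    · exact hE₁.2 v' hv'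
    · exact hE₀c _ hm.1 _ (inv_mem hv)
    · exact hE₁c _ hm.2 _ hv'
    · exact hE₀.2 _ hm.1

theorem conj_formula {e b a : G} {s : ℤ} (heb : e * b = b * e) (hb : b ∈ F) (ha : a ∈ A) :
    e * (b * a ^ s) * e⁻¹ * (b * a ^ s)⁻¹ = (e * a * e⁻¹ * a⁻¹) ^ s := by
  have hx := S.comm_mem e ha
  set x := e * a * e⁻¹ * a⁻¹ with hxdef
  have e1 : e * a * e⁻¹ = x * a := by rw [hxdef]; group
  have hxa : Commute x a := S.comm _ (S.FA hx) _ ha
  have e2 : e * a ^ s * e⁻¹ = x ^ s * a ^ s := by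
    rw [← conj_zpow, e1, hxa.mul_zpow]
  have hxs : x ^ s ∈ F := zpow_mem hx s
  have hbx : b * x ^ s = x ^ s * b := S.comm _ (S.FA hb) _ (S.FA hxs)
  calc e * (b * a ^ s) * e⁻¹ * (b * a ^ s)⁻¹ = (e * b) * a ^ s * e⁻¹ * ((a ^ s)⁻¹ * b⁻¹) := by group
    _ = (b * e) * a ^ s * e⁻¹ * ((a ^ s)⁻¹ * b⁻¹) := by rw [heb]
    _ = b * (e * a ^ s * e⁻¹) * ((a ^ s)⁻¹ * b⁻¹) := by group
    _ = b * (x ^ s * a ^ s) * ((a ^ s)⁻¹ * b⁻¹) := by rw [e2]
    _ = b * x ^ s * b⁻¹ := by group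
    _ = x ^ s := by rw [hbx]; group

/-- Two subgroups of order `p⁴` normalizing each other coincide. -/
theorem le_of_comm (hodd : p ≠ 2) {E₀ E₁ : Subgroup G} (hE₀ : IsElementaryAbelian p E₀) (hE₁ : IsElementaryAbelian p E₁)
    (hc₀ : Nat.card E₀ = p ^ 4) (hc₁ : Nat.card E₁ = p ^ 4) (hcomm : ∀ u ∈ E₀, ∀ v ∈ E₁, ⁅v, u⁆ ∈ E₀ ⊓ E₁) : E₁ ≤ E₀ := by
  have hpp := hp.out
  have hE₀c : ∀ x ∈ E₀, ∀ y ∈ E₀, x * y = y * x := fun x hx y hy => by
    have := hE₀.1.is_comm.comm ⟨x, hx⟩ ⟨y, hy⟩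
    exact congrArg Subtype.val this
  have hE₁c : ∀ x ∈ E₁, ∀ y ∈ E₁, x * y = y * x := fun x hx y hy => by
    have := hE₁.1.is_comm.comm ⟨x, hx⟩ ⟨y, hy⟩
    exact congrArg Subtype.val this
  obtain ⟨hC₀, hFE₀⟩ := S.key E₀ hE₀ hc₀
  have hcomm' : ∀ u ∈ E₁, ∀ v ∈ E₀, ⁅v, u⁆ ∈ E₁ ⊓ E₀ := by
    intro u hu v hv
    have h1 := hcomm v hv u hu
    have e : ⁅v, u⁆ = ⁅u, v⁆⁻¹ := by
      rw [commutatorElement_inv]
    rw [e]
    exact inv_mem (Subgroup.mem_inf.mpr ⟨h1.2, h1.1⟩)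
  intro v' hv'
  obtain ⟨v, hv, hva⟩ := S.partner hodd hE₁ hE₀ hc₁ hc₀ hcomm' hv'
  have haA : v⁻¹ * v' ∈ A := by
    have := inv_mem hva
    simpa using this
  set a := v⁻¹ * v' with hadef
  have e₀ : v' = v * a := by rw [hadef]; group
  by_cases haF : a ∈ F
  · rw [e₀]
    exact mul_mem hv (hFE₀ haF)
  exfalso
  have hx₀ := S.comm_mem v⁻¹ haA
  set x₀ := v⁻¹ * a * v⁻¹⁻¹ * a⁻¹ with hx₀def
  have hle : F ≤ zpowers x₀ := by
    intro x hx
    obtain ⟨u₁, hu₁, e₁⟩ := S.surj E₀ hE₀ hc₀ haA haF x hx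
    obtain ⟨u', hu', hua⟩ := S.partner hodd hE₀ hE₁ hc₀ hc₁ hcomm (inv_mem hu₁)
    have hA₂ : u₁⁻¹⁻¹ * u' ∈ F ⊔ zpowers a :=
      le_sup_zpowers F A S.card_eq S.FA haA haF hua
    haveI := S.Fn
    obtain ⟨b, hb, z, ⟨s, hs⟩, hz⟩ := Subgroup.mem_sup_of_normal_left.1 hA₂
    have hz' : a ^ s = z := hs
    subst hz'
    have hvb : v⁻¹ * b = b * v⁻¹ := (mem_centralizer_iff.mp (inv_mem (hC₀ hv)) b hb).symm
    have hlam := S.conj_formula (s := s) hvb hb haA
    rw [hz, ← hx₀def] at hlam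
    -- the commutation
    have hcu : v' * u' = u' * v' := hE₁c _ hv' _ hu'
    have euu : u' = u₁⁻¹ * (u₁⁻¹⁻¹ * u') := by group
    set a₂ := u₁⁻¹⁻¹ * u' with ha₂
    have hvu : v * u₁⁻¹ = u₁⁻¹ * v := hE₀c _ hv _ (inv_mem hu₁)
    have haa₂ : a * a₂ = a₂ * a := S.comm _ haA _ hua
    have e₂ : a * u₁⁻¹ = u₁⁻¹ * x * a := by
      rw [← e₁]
      group
    have e₃ : a₂ * v = v * (x₀ ^ s) * a₂ := by
      rw [← hlam]
      group
    have hfin : x = x₀ ^ s := by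
      have h1 : v * u₁⁻¹ * x * (a * a₂) = v * u₁⁻¹ * (x₀ ^ s) * (a * a₂) := by
        calc v * u₁⁻¹ * x * (a * a₂) = v * (u₁⁻¹ * x * a) * a₂ := by group
          _ = v * (a * u₁⁻¹) * a₂ := by rw [e₂]
          _ = v' * u' := by rw [e₀, euu]; group
          _ = u' * v' := hcu
          _ = u₁⁻¹ * (a₂ * v) * a := by rw [e₀, euu]; group
          _ = u₁⁻¹ * (v * (x₀ ^ s) * a₂) * a := by rw [e₃]
          _ = (u₁⁻¹ * v) * (x₀ ^ s) * (a₂ * a) := by group
          _ = (v * u₁⁻¹) * (x₀ ^ s) * (a * a₂) := by rw [hvu, haa₂]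
      have h2 := mul_right_cancel h1
      exact mul_left_cancel h2
    rw [hfin]
    exact ⟨s, rfl⟩
  have h1 := Subgroup.card_le_of_le hle
  rw [S.cardF, Nat.card_zpowers] at h1
  have h2 : x₀ ^ p = 1 := S.pow _ (S.FA hx₀)
  have h3 : orderOf x₀ ≤ p := Nat.le_of_dvd hpp.pos (orderOf_dvd_of_pow_eq_one h2)
  have h4 : p < p ^ 2 := by
    calc p = p ^ 1 := (pow_one p).symm
      _ < p ^ 2 := Nat.pow_lt_pow_right hpp.one_lt (by norm_num)
  omega

end Sett

end setting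

section main

variable {p : ℕ} [hp : Fact p.Prime]

theorem normal_E4_aux (hodd : p ≠ 2) : ∀ (n : ℕ) (G : Type u) [Group G] [Finite G], Nat.card G = n → IsPGroup p G →
    ∀ E : Subgroup G, IsElementaryAbelian p E → Nat.card E = p ^ 4 →
      ∃ A : Subgroup G, A.Normal ∧ IsElementaryAbelian p A ∧ Nat.card A = p ^ 4 := by
  intro n
  induction n using Nat.strong_induction_on with
  | _ n ih =>
    intro G _ _ hn hG E hE hE4
    have hpp := hp.out
    by_cases hEtop : E = ⊤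
    · exact ⟨E, by rw [hEtop]; infer_instance, hE, hE4⟩
    obtain ⟨M, hM, hEM⟩ : ∃ M : Subgroup G, IsCoatom M ∧ E ≤ M := (eq_top_or_exists_le_coatom E).resolve_left hEtop
    haveI : Group.IsNilpotent G := hG.isNilpotent
    have hMn : M.Normal := by
      have h1 := Group.normalizerCondition_of_isNilpotent M (lt_top_iff_ne_top.mpr hM.1)
      exact normalizer_eq_top_iff.mp (hM.2 _ h1)
    have hlt : Nat.card M < n := by
      rw [← hn, ← Subgroup.card_top (G := G)]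
      exact Cfsg.Agent.Lib.Core.card_lt_card_of_lt (lt_top_iff_ne_top.mpr hM.1)
    have hEc : ∀ x ∈ E, ∀ y ∈ E, x * y = y * x := fun x hx y hy => by
      have := hE.1.is_comm.comm ⟨x, hx⟩ ⟨y, hy⟩
      exact congrArg Subtype.val this
    have hE' : IsElementaryAbelian p (E.subgroupOf M) := by
      refine ⟨⟨⟨?_⟩⟩, ?_⟩
      · rintro ⟨a, ha⟩ ⟨b, hb⟩
        exact Subtype.ext (Subtype.ext (hEc _ (Subgroup.mem_subgroupOf.mp ha) _ (Subgroup.mem_subgroupOf.mp hb)))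
      · intro a ha
        exact Subtype.ext (hE.2 _ (Subgroup.mem_subgroupOf.mp ha))
    have hE'c : Nat.card (E.subgroupOf M) = p ^ 4 := by
      rw [← hE4]
      exact Nat.card_congr (Subgroup.subgroupOfEquivOfLe hEM).toEquiv
    obtain ⟨A₀, hA₀n, hA₀e, hA₀c⟩ := ih _ hlt ↥M rfl (hG.to_subgroup M) _ hE' hE'c
    -- the subgroup in `G`
    set E₀ := A₀.map M.subtype with hE₀def
    have hE₀M : E₀ ≤ M := Subgroup.map_subtype_le _
    have hE₀ : IsElementaryAbelian p E₀ := by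
      refine ⟨⟨⟨?_⟩⟩, ?_⟩
      · rintro ⟨_, a, ha, rfl⟩ ⟨_, b, hb, rfl⟩
        apply Subtype.ext
        have h1 := hA₀e.1.is_comm.comm ⟨a, ha⟩ ⟨b, hb⟩
        exact congrArg (fun z : ↥A₀ => ((z : ↥M) : G)) h1
      · rintro _ ⟨a, ha, rfl⟩
        have h1 := hA₀e.2 a ha
        exact congrArg Subtype.val h1
    have hE₀c : Nat.card E₀ = p ^ 4 := by
      rw [hE₀def, Subgroup.card_map_of_injective M.subtype_injective]
      exact hA₀c
    have hN₀ : ∀ m ∈ M, ∀ x ∈ E₀, m * x * m⁻¹ ∈ E₀ := by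
      rintro m hm _ ⟨a, ha, rfl⟩
      exact ⟨⟨m, hm⟩ * a * (⟨m, hm⟩ : ↥M)⁻¹, hA₀n.conj_mem a ha _, rfl⟩
    -- the maximal normal elementary abelian subgroup
    let 𝒜 : Set (Subgroup G) := {B | B.Normal ∧ IsMulCommutative B ∧ ∀ b ∈ B, b ^ p = 1}
    have hne𝒜 : 𝒜.Nonempty := ⟨⊥, inferInstance, ⟨⟨fun a b => Subsingleton.elim _ _⟩⟩, fun b hb => by
      rw [Subgroup.mem_bot.mp hb, one_pow]⟩
    obtain ⟨A, hA⟩ := Set.Finite.exists_maximal (Set.toFinite 𝒜) hne𝒜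
    obtain ⟨hAn, hAc, hAe⟩ := hA.prop
    haveI := hAn
    have hAcm : ∀ x ∈ A, ∀ y ∈ A, x * y = y * x := fun x hx y hy => by
      have := hAc.is_comm.comm ⟨x, hx⟩ ⟨y, hy⟩
      exact congrArg Subtype.val this
    have hom : ∀ x, x ∈ centralizer (A : Set G) → x ^ p = 1 → x ∈ A := by
      intro x hx hxp
      apply Cfsg.Agent.Lib.Transfer.mem_of_max_exp p ⟨1, (pow_one p).symm⟩ hodd hG A hAc hAe _ x hx hxp
      intro B hB1 hB2 hB3 hB4
      exact le_antisymm (hA.le_of_ge ⟨hB1, hB2, hB3⟩ hB4) hB4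
    obtain ⟨a, ha⟩ := IsPGroup.iff_card.mp (hG.to_subgroup A)
    have hAea : IsElementaryAbelian p A := ⟨hAc, hAe⟩
    by_cases h4 : 4 ≤ a
    · obtain ⟨N, hN, hNA, hNc⟩ := exists_normal_card hG A 4 (by
        rw [ha]
        exact Nat.pow_le_pow_right hpp.pos h4)
      refine ⟨N, hN, ⟨⟨⟨?_⟩⟩, fun x hx => hAe x (hNA hx)⟩, hNc⟩
      rintro ⟨x, hx⟩ ⟨y, hy⟩
      exact Subtype.ext (hAcm x (hNA hx) y (hNA hy))
    have hlarge : ∀ a' : ℕ, a' < 4 → Nat.card A = p ^ a' → ¬ E ≤ A := by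
      intro a' ha' hc h
      have h1 := Subgroup.card_le_of_le h
      rw [hc, hE4] at h1
      exact absurd h1 (not_le.mpr (Nat.pow_lt_pow_right hpp.one_lt ha'))
    have ha4 : a < 4 := by omega
    have hcase : a = 0 ∨ a = 1 ∨ a = 2 ∨ a = 3 := by omega
    rcases hcase with rfl | rfl | rfl | rfl
    · exfalso
      apply hlarge 0 (by norm_num) ha
      intro x hx
      apply hom x _ (hE.2 x hx)
      rw [mem_centralizer_iff]
      intro y hy
      have hbot : A = ⊥ := by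
        rw [pow_zero] at ha
        exact (Subgroup.card_eq_one.mp ha)
      have hy1 : y = 1 := by
        have h0 : y ∈ A := hy
        rw [hbot] at h0
        exact Subgroup.mem_bot.mp h0
      rw [hy1, one_mul, mul_one]
    · exfalso
      apply hlarge 1 (by norm_num) ha
      intro x hx
      apply hom x _ (hE.2 x hx)
      rw [mem_centralizer_iff]
      intro y hy
      have hbot : Nat.card A = Nat.card (⊥ : Subgroup G) * p := by
        rw [ha, Subgroup.card_bot, one_mul, pow_one]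
      have h1 := comm_mem_of_card hG ⊥ A hbot bot_le x hy
      rw [Subgroup.mem_bot] at h1
      have h2 := mul_inv_eq_one.mp h1
      have h3 := mul_inv_eq_iff_eq_mul.mp h2
      exact h3.symm
    · exfalso
      have h1 := Cfsg.Agent.Lib.OddLocal.card_le_mul_card_inf_centralizer hG A hAea ha E
      have h2 : E ⊓ centralizer (A : Set G) ≤ A := fun x hx => hom x hx.2 (hE.2 x hx.1)
      have h3 := Subgroup.card_le_of_le h2
      rw [ha] at h3
      rw [hE4] at h1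
      have h5 : p ^ 4 ≤ p ^ 3 := by
        calc p ^ 4 ≤ p * Nat.card ↥(E ⊓ centralizer (A : Set G)) := h1
          _ ≤ p * p ^ 2 := Nat.mul_le_mul_left p h3
          _ = p ^ 3 := by ring
      exact absurd h5 (not_le.mpr (Nat.pow_lt_pow_right hpp.one_lt (by norm_num)))
    · obtain ⟨F, hFn, hFA, hFc⟩ := exists_normal_card hG A 2 (by
        rw [ha]
        exact Nat.pow_le_pow_right hpp.pos (by norm_num))
      have S : Sett p A F := ⟨hAn, hFn, hFA, hAcm, hAe, ha, hFc, hom, hG⟩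
      refine ⟨E₀, ?_, hE₀, hE₀c⟩
      constructor
      intro x hx g
      have hE₁ : IsElementaryAbelian p (E₀.map (MulAut.conj g).toMonoidHom) := by
        have hE₀cm : ∀ x ∈ E₀, ∀ y ∈ E₀, x * y = y * x := fun x hx y hy => by
          have := hE₀.1.is_comm.comm ⟨x, hx⟩ ⟨y, hy⟩
          exact congrArg Subtype.val this
        refine ⟨⟨⟨?_⟩⟩, ?_⟩
        · rintro ⟨_, a, ha, rfl⟩ ⟨_, b, hb, rfl⟩
          apply Subtype.ext
          show (MulAut.conj g) a * (MulAut.conj g) b = (MulAut.conj g) b * (MulAut.conj g) a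
          rw [← map_mul, ← map_mul, hE₀cm a ha b hb]
        · rintro _ ⟨a, ha, rfl⟩
          show ((MulAut.conj g) a) ^ p = 1
          rw [← map_pow, hE₀.2 a ha, map_one]
      have hE₁c : Nat.card (E₀.map (MulAut.conj g).toMonoidHom) = p ^ 4 := by
        rw [Subgroup.card_map_of_injective (MulAut.conj g).injective]
        exact hE₀c
      have hcomm : ∀ u ∈ E₀, ∀ v ∈ E₀.map (MulAut.conj g).toMonoidHom, ⁅v, u⁆ ∈ E₀ ⊓ E₀.map (MulAut.conj g).toMonoidHom := by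
        rintro u hu _ ⟨e, he, rfl⟩
        have hv : g * e * g⁻¹ ∈ M := hMn.conj_mem e (hE₀M he) g
        have huM := hE₀M hu
        have hv' : (MulAut.conj g).toMonoidHom e = g * e * g⁻¹ := rfl
        rw [hv']
        refine Subgroup.mem_inf.mpr ⟨?_, ?_⟩
        · rw [commutatorElement_def]
          exact mul_mem (hN₀ _ hv u hu) (inv_mem hu)
        · rw [commutatorElement_def]
          have h1 : g⁻¹ * u * g ∈ M := by
            have := hMn.conj_mem u huM g⁻¹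
            simpa using this
          have h2 := hN₀ _ h1 e⁻¹ (inv_mem he)
          have e5 : g * e * g⁻¹ * u * (g * e * g⁻¹)⁻¹ * u⁻¹ = (g * e * g⁻¹) * (u * (g * e * g⁻¹)⁻¹ * u⁻¹) := by group
          rw [e5]
          refine mul_mem ⟨e, he, rfl⟩ ?_
          refine ⟨_, h2, ?_⟩
          show g * ((g⁻¹ * u * g) * e⁻¹ * (g⁻¹ * u * g)⁻¹) * g⁻¹ = u * (g * e * g⁻¹)⁻¹ * u⁻¹
          group
      have hle := S.le_of_comm hodd hE₀ hE₁ hE₀c hE₁c hcomm
      exact hle ⟨x, hx, rfl⟩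

/-- **S0122.** -/
theorem s0122 {G : Type u} [Group G] [Finite G] (hodd : p ≠ 2) (hG : IsPGroup p G) (E : Subgroup G)
    (hE : IsElementaryAbelian p E) (hE4 : Nat.card E = p ^ 4) :
    ∃ A : Subgroup G, A.Normal ∧ IsElementaryAbelian p A ∧ Nat.card A = p ^ 4 :=
  normal_E4_aux hodd _ G rfl hG E hE hE4

end main

end Cfsg.Agent.Lib.NormalE4
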